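import Cfsg.Agent.Lib.Helper28.Mult.Stem
import Cfsg.Agent.Lib.Helper35.Stem

/-!
# Abstract lemmas on double covers (helper79)
-/

set_option autoImplicit false
set_option linter.style.haveILetI false

namespace Cfsg.Agent.Lib.Helper79.HSM

open Cfsg.Agent.Lib.Helper28

universe u v

/-- the order of an extension -/
theorem card_eq_ker_mul {Γ : Type u} {G : Type v} [Group Γ] [Group G] (σ : Γ →* G)
    (hs : Function.Surjective σ) : Nat.card Γ = Nat.card G * Nat.card σ.ker := by
  rw [Subgroup.card_eq_card_quotient_mul_card_subgroup σ.ker,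
    Nat.card_congr (QuotientGroup.quotientKerEquivOfSurjective σ hs).toEquiv]

/-- a kernel with at most two elements -/
theorem card_ker_le_two {Γ : Type u} {G : Type v} [Group Γ] [Group G] [Finite G] (σ : Γ →* G)
    (hs : Function.Surjective σ) (h : Nat.card Γ ≤ 2 * Nat.card G) : Nat.card σ.ker ≤ 2 := by
  rw [card_eq_ker_mul σ hs, mul_comm] at h
  exact Nat.le_of_mul_le_mul_right h Nat.card_pos

/-- groups with at most two elements are cyclic -/
theorem cyclic_of_card_le_two {K : Type u} [Group K] [Finite K] (h : Nat.card K ≤ 2) :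
    IsCyclic K ∧ Nat.card K ∣ 2 := by
  have h0 : 0 < Nat.card K := Nat.card_pos
  have h1 : Nat.card K = 1 ∨ Nat.card K = 2 := by omega
  rcases h1 with h1 | h1
  · refine ⟨?_, by rw [h1]; norm_num⟩
    haveI : Subsingleton K := (Nat.card_eq_one_iff_unique.mp h1).1
    infer_instance
  · refine ⟨?_, by rw [h1]⟩
    haveI : Fact (Nat.Prime 2) := ⟨Nat.prime_two⟩
    exact isCyclic_of_prime_card h1

/-- a central involution in the commutator subgroup and in the kernel of a map whose source is at
most twice as big as its target gives a stem extension with a kernel of order two -/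
theorem stem_of_involution {Γ : Type u} {G : Type v} [Group Γ] [Group G] [Finite Γ] (σ : Γ →* G)
    (hs : Function.Surjective σ) (ζ : Γ) (h1 : ζ ≠ 1) (h2 : ζ * ζ = 1) (hk : σ ζ = 1)
    (hc : ζ ∈ Subgroup.center Γ) (hd : ζ ∈ commutator Γ) (hcard : Nat.card Γ ≤ 2 * Nat.card G) :
    Cfsg.IsStemExtension σ ∧ IsCyclic σ.ker ∧ Nat.card σ.ker = 2 := by
  haveI : Finite G := Finite.of_surjective σ hs
  have hle := card_ker_le_two σ hs hcard
  have ho : orderOf ζ = 2 := by
    haveI : Fact (Nat.Prime 2) := ⟨Nat.prime_two⟩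
    exact orderOf_eq_prime (by rw [pow_two, h2]) h1
  have hz : Subgroup.zpowers ζ ≤ σ.ker := by
    rw [Subgroup.zpowers_le]; exact hk
  have hcz : Nat.card (Subgroup.zpowers ζ) = 2 := by rw [Nat.card_zpowers, ho]
  have heq : Subgroup.zpowers ζ = σ.ker :=
    Subgroup.eq_of_le_of_card_ge hz (by rw [hcz]; exact hle)
  refine ⟨⟨hs, ?_, ?_⟩, (cyclic_of_card_le_two hle).1, by rw [← heq, hcz]⟩
  · rw [← heq, Subgroup.zpowers_le]; exact hc
  · rw [← heq, Subgroup.zpowers_le]; exact hd

/-- an element of a closure commuting with the generators is central -/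
theorem mem_center_closure {P : Type u} [Group P] (S : Set P) (x : Subgroup.closure S)
    (h : ∀ s ∈ S, s * x.1 = x.1 * s) : x ∈ Subgroup.center (Subgroup.closure S) := by
  rw [Subgroup.mem_center_iff]
  intro y
  apply Subtype.ext
  show y.1 * x.1 = x.1 * y.1
  have hle : Subgroup.closure S ≤ Subgroup.centralizer {x.1} := by
    rw [Subgroup.closure_le]
    intro s hs
    rw [SetLike.mem_coe, Subgroup.mem_centralizer_singleton_iff]
    exact h s hs
  have := hle y.2
  rw [Subgroup.mem_centralizer_singleton_iff] at this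
  exact this

end Cfsg.Agent.Lib.Helper79.HSM
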