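import Cfsg.Agent.Lib.Helper28.Mult.Cover

set_option autoImplicit false
set_option maxRecDepth 100000

namespace Cfsg.Agent.Lib.Helper79.HSM

open Cfsg.Agent.Lib.Helper28

def relsC : List (List ℕ) := [
  [2, 2],
  [1, 1, 1, 1, 1, 1, 1, 1, 1, 1, 1],
  [1, 2, 1, 2, 1, 2, 1, 2, 1, 2, 1, 2],
  [1, 1, 1, 2, 1, 2, 1, 1, 2, 0, 0, 0, 2, 1, 1, 2, 0, 2],
  [1, 1, 2, 1, 2, 0, 2, 0, 2, 1, 1, 2, 1, 2, 0, 2, 0, 2],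
  [1, 1, 1, 1, 1, 2, 1, 2, 0, 2, 1, 1, 1, 1, 2, 1, 2, 1, 2, 0, 2],
  [4, 4],
  [1, 4, 1, 4, 1, 4, 1, 4, 1, 4, 1, 4],
  [1, 1, 1, 4, 0, 0, 0, 4, 1, 4, 2, 4, 0, 4],
  [1, 1, 1, 2, 0, 2, 1, 2, 0, 0, 0, 4, 1, 4, 0, 4],
  [1, 1, 1, 4, 2, 1, 2, 0, 2, 4, 0, 0, 0, 2, 0, 2, 1, 2]]
def normC : List (List ℕ) := [
  [8, 10, 14, 17, 17],
  [7, 7, 10, 12, 17],
  [6, 12, 17, 20, 23]]
def C : Cov where
  n := 3
  rels := relsC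
  norm := normC

theorem C_ok : C.OK where
  relsK := by decide +kernel
  normK := by decide +kernel
  normLen := rfl
  esum := by decide +kernel

end Cfsg.Agent.Lib.Helper79.HSM
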