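import Cfsg.Agent.Lib.Helper79.HSM.Model

/-!
# A double cover of the Higman-Sims group on 704 points (helper79): the group
-/

set_option autoImplicit false
set_option maxRecDepth 100000

namespace Cfsg.Agent.Lib.Helper79.HSM

open Cfsg.Agent.Lib.Helper28
open Cfsg.Agent.Lib.Helper92
open scoped commutatorElement

/-- the Higman-Sims group on 100 points -/
abbrev G0 : Subgroup (Equiv.Perm (Fin 100)) := PC.PG HS.a HS.z

theorem evalW_mem_of {Γ : Type*} [Group Γ] (H : Subgroup Γ) (v : ℕ → Γ) :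
    ∀ w : List ℕ, (∀ y ∈ w, v y ∈ H) → evalW v w ∈ H := by
  intro w
  induction w with
  | nil => intro _; rw [evalW_nil]; exact H.one_mem
  | cons x w ih =>
    intro hw
    rw [evalW_cons]
    exact H.mul_mem (hw x List.mem_cons_self) (ih (fun y hy => hw y (List.mem_cons_of_mem _ hy)))

theorem a_mem : HS.a ∈ G0 := Subgroup.subset_closure (by simp)
theorem z_mem : HS.z ∈ G0 := Subgroup.subset_closure (by simp)

theorem y_mem : y ∈ G0 := by
  have h : PC.HasP (evalW (bval g1) yW) yC := by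
    have := hasP_evA hasP_g1 yW y_chk.1
    rwa [y_chk.2.2] at this
  have e : y = evalW (bval g1) yW := (PC.hasP_pm y_ok).ext h
  rw [e]
  apply evalW_mem_of
  intro l hl
  have h1 := y_chk.1 l hl
  have h2 := y_chk.2.1 l hl
  interval_cases l
  · exact a_mem
  · exact G0.inv_mem a_mem
  · exact absurd rfl h2.1
  · exact absurd rfl h2.2
  · exact z_mem
  · exact G0.inv_mem z_mem

theorem g1_mem : ∀ i, g1 i ∈ G0
  | 0 => a_mem
  | 1 => y_mem
  | 2 => z_mem
  | (_ + 3) => G0.one_mem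

/-- the generators of the covering presentation in the Higman-Sims group -/
def γ (i : ℕ) : G0 := ⟨g1 i, g1_mem i⟩

theorem hγ : ∀ r ∈ C.rels, evalW (bval γ) r = 1 := by
  intro r hr
  apply Subtype.ext
  have e : ((evalW (bval γ) r : G0) : Equiv.Perm (Fin 100)) = evalW (bval g1) r :=
    map_evalW_bval G0.subtype γ r
  rw [e]
  obtain ⟨h1, h2, _⟩ := rels_chk r hr
  exact (hasP_evA hasP_g1 r h1).eq_one h2

/-! ### the double cover -/

abbrev PP := Equiv.Perm (Fin 100) × Equiv.Perm (Fin 704)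

def gP (i : ℕ) : PP := (g1 i, g2 i)

abbrev Γ0 : Subgroup PP := Subgroup.closure (Set.range gP)

def gg (i : ℕ) : Γ0 := ⟨gP i, Subgroup.subset_closure ⟨i, rfl⟩⟩

theorem evalP (w : List ℕ) : evalW (bval gP) w = (evalW (bval g1) w, evalW (bval g2) w) :=
  Prod.ext (map_evalW_bval (MonoidHom.fst _ _) gP w) (map_evalW_bval (MonoidHom.snd _ _) gP w)

theorem coe_evalW (w : List ℕ) : ((evalW (bval gg) w : Γ0) : PP) = evalW (bval gP) w :=
  map_evalW_bval Γ0.subtype gg w

def zP : PP := (1, zt)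

theorem bval_comm {l : ℕ} (hl : l < 6) : bval g2 l * zt = zt * bval g2 l := by
  have h1 := (hasP_g2 l hl).mul hzt
  have h2 := hzt.mul (hasP_g2 l hl)
  rw [cen_chk l hl] at h1
  exact h1.ext h2

theorem g2_comm : ∀ i, g2 i * zt = zt * g2 i
  | 0 => bval_comm (l := 0) (by norm_num)
  | 1 => bval_comm (l := 2) (by norm_num)
  | 2 => bval_comm (l := 4) (by norm_num)
  | (_ + 3) => by show 1 * zt = zt * 1; rw [one_mul, mul_one]

theorem gP_comm (s : PP) (hs : s ∈ Set.range gP) : s * zP = zP * s := by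
  obtain ⟨i, rfl⟩ := hs
  apply Prod.ext
  · show g1 i * 1 = 1 * g1 i
    rw [mul_one, one_mul]
  · exact g2_comm i

theorem rel_val (r : List ℕ) (hr : r ∈ relsC) :
    evalW (bval gP) r = 1 ∨ evalW (bval gP) r = zP := by
  obtain ⟨h1, h2, h3⟩ := rels_chk r hr
  have e1 : evalW (bval g1) r = 1 := (hasP_evA hasP_g1 r h1).eq_one h2
  rcases h3 with h3 | h3
  · left
    rw [evalP, e1, (hasP_evB hasP_g2 r h1).eq_one h3]
    rfl
  · right
    have := hasP_evB hasP_g2 r h1
    rw [h3] at this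
    rw [evalP, e1, this.ext hzt]
    rfl

theorem rel_central (i : ℕ) : evalW (bval gg) (C.rel i) ∈ Subgroup.center Γ0 := by
  apply mem_center_closure (Set.range gP)
  intro s hs
  rw [coe_evalW]
  by_cases hi : i < C.rels.length
  · have hm : C.rel i ∈ relsC := by
      unfold Cov.rel
      rw [List.getD_eq_getElem _ _ hi]
      exact List.getElem_mem _
    rcases rel_val _ hm with e | e <;> rw [e]
    · rw [mul_one, one_mul]
    · exact gP_comm s hs
  · have : C.rel i = [] := by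
      unfold Cov.rel
      exact List.getD_eq_default _ _ (by omega)
    rw [this, evalW_nil, mul_one, one_mul]

theorem nrm_one (x : ℕ) : evalW (bval gg) ((C.nrm x).flatMap C.ex) = 1 := by
  by_cases hx : x < 3
  · obtain ⟨h1, h2, h3⟩ := nrm_chk x hx
    apply Subtype.ext
    rw [coe_evalW, evalP, (hasP_evA hasP_g1 _ h1).eq_one h2, (hasP_evB hasP_g2 _ h1).eq_one h3]
    rfl
  · have : C.nrm x = [] := by
      unfold Cov.nrm
      exact List.getD_eq_default _ _ (by show 3 ≤ x; omega)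
    rw [this]
    rfl

theorem hW_gg (t : ℕ × ℕ × ℕ) : evalW (C.val gg) (C.word t) = 1 :=
  Cov.evalW_word C_ok gg rel_central nrm_one t

theorem htop_gg : Sg (C.val gg) [0, 1, 2, 3, 4, 5] = ⊤ := by
  rw [eq_top_iff, ← Subgroup.closure_closure_coe_preimage (k := Set.range gP), Subgroup.closure_le]
  rintro x ⟨i, hi⟩
  by_cases h3 : i < 3
  · have e : x = C.val gg (2 * i) := by
      rw [Cov.val_two_mul gg (show i < C.n from h3)]
      exact Subtype.ext hi.symm
    rw [e]
    apply Subgroup.subset_closure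
    refine ⟨2 * i, ?_, rfl⟩
    show 2 * i ∈ [0, 1, 2, 3, 4, 5]
    interval_cases i <;> decide
  · have e : x = 1 := by
      apply Subtype.ext
      rw [← hi]
      obtain ⟨k, rfl⟩ : ∃ k, i = k + 3 := ⟨i - 3, by omega⟩
      rfl
    rw [e]
    exact Subgroup.one_mem _

theorem fst_mem (x : Γ0) : x.1.1 ∈ G0 := by
  have hle : Γ0 ≤ G0.comap (MonoidHom.fst _ _) := by
    rw [Subgroup.closure_le]
    rintro _ ⟨i, rfl⟩
    exact g1_mem i
  exact hle x.2

/-- the covering map -/
def σ0 : Γ0 →* G0 := ((MonoidHom.fst _ _).comp Γ0.subtype).codRestrict G0 fst_mem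

theorem σ0_surj : Function.Surjective σ0 := by
  intro x
  have hle : G0 ≤ Γ0.map (MonoidHom.fst _ _) := by
    rw [Subgroup.closure_le]
    rintro s (rfl | rfl)
    · exact ⟨gP 0, Subgroup.subset_closure ⟨0, rfl⟩, rfl⟩
    · exact ⟨gP 2, Subgroup.subset_closure ⟨2, rfl⟩, rfl⟩
  obtain ⟨p, hp, hpx⟩ := hle x.2
  exact ⟨⟨p, hp⟩, Subtype.ext hpx⟩

/-- the central involution -/
def ζ0 : Γ0 := evalW (bval gg) (sW ++ tW ++ invW sW ++ invW tW)

theorem ζ0_coe : (ζ0 : PP) = zP := by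
  obtain ⟨h1, h2, h3⟩ := comm_chk
  have := hasP_evB hasP_g2 _ h1
  rw [h3] at this
  unfold ζ0
  rw [coe_evalW, evalP, (hasP_evA hasP_g1 _ h1).eq_one h2, this.ext hzt]
  rfl

theorem ζ0_comm : ζ0 = ⁅evalW (bval gg) sW, evalW (bval gg) tW⁆ := by
  unfold ζ0
  rw [evalW_append, evalW_append, evalW_append, evalW_invW (bval_oinv gg),
    evalW_invW (bval_oinv gg), commutatorElement_def]

theorem ζ0_ne : ζ0 ≠ 1 := by
  intro h
  have h1 : zP = 1 := by rw [← ζ0_coe, h]; rfl
  have h2 : zt = 1 := congrArg Prod.snd h1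
  have h3 := hzt ⟨0, by norm_num⟩
  rw [h2] at h3
  exact zt_ne h3.symm

theorem ζ0_sq : ζ0 * ζ0 = 1 := by
  apply Subtype.ext
  show (ζ0 : PP) * (ζ0 : PP) = 1
  rw [ζ0_coe]
  apply Prod.ext
  · show (1 : Equiv.Perm (Fin 100)) * 1 = 1
    rw [mul_one]
  · exact (hzt.mul hzt).eq_one zt_sq

theorem ζ0_ker : σ0 ζ0 = 1 := by
  apply Subtype.ext
  show (ζ0 : PP).1 = 1
  rw [ζ0_coe]
  rfl

theorem ζ0_central : ζ0 ∈ Subgroup.center Γ0 := by
  apply mem_center_closure (Set.range gP)
  intro s hs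
  rw [ζ0_coe]
  exact gP_comm s hs

theorem ζ0_mem_commutator : ζ0 ∈ commutator Γ0 := by
  rw [ζ0_comm, commutator_def]
  exact Subgroup.commutator_mem_commutator (Subgroup.mem_top _) (Subgroup.mem_top _)

end Cfsg.Agent.Lib.Helper79.HSM
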