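import Cfsg.Agent.Lib.Helper79.HSM.LAData

set_option autoImplicit false
set_option maxRecDepth 100000

namespace Cfsg.Agent.Lib.Helper79.HSM.LA

open Cfsg.Agent.Lib.Helper28 Cfsg.Agent.Lib.Helper28.V2

theorem chk_12 : allRange D.checkLabel 3998 417 = true := by decide +kernel
theorem chk_13 : allRange D.checkLabel 4415 386 = true := by decide +kernel
theorem chk_14 : allRange D.checkLabel 4801 485 = true := by decide +kernel
theorem chk_15 : allRange D.checkLabel 5286 486 = true := by decide +kernel
theorem chk_16 : allRange D.checkLabel 5772 352 = true := by decide +kernel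
theorem chk_17 : allRange D.checkLabel 6124 327 = true := by decide +kernel
theorem chk_18 : allRange D.checkLabel 6451 428 = true := by decide +kernel
theorem chk_19 : allRange D.checkLabel 6879 420 = true := by decide +kernel
theorem chk_20 : allRange D.checkLabel 7299 338 = true := by decide +kernel
theorem chk_21 : allRange D.checkLabel 7637 490 = true := by decide +kernel
theorem chk_22 : allRange D.checkLabel 8127 496 = true := by decide +kernel
theorem chk_23 : allRange D.checkLabel 8623 497 = true := by decide +kernel
theorem chkF_1 : ∀ c, 3998 ≤ c → c < 9120 → D.checkLabel c = true := by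
  intro c h1 h2
  by_cases h12 : c < 4415
  · exact allRange_iff.mp chk_12 c (by omega) (by omega)
  by_cases h13 : c < 4801
  · exact allRange_iff.mp chk_13 c (by omega) (by omega)
  by_cases h14 : c < 5286
  · exact allRange_iff.mp chk_14 c (by omega) (by omega)
  by_cases h15 : c < 5772
  · exact allRange_iff.mp chk_15 c (by omega) (by omega)
  by_cases h16 : c < 6124
  · exact allRange_iff.mp chk_16 c (by omega) (by omega)
  by_cases h17 : c < 6451
  · exact allRange_iff.mp chk_17 c (by omega) (by omega)
  by_cases h18 : c < 6879
  · exact allRange_iff.mp chk_18 c (by omega) (by omega)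
  by_cases h19 : c < 7299
  · exact allRange_iff.mp chk_19 c (by omega) (by omega)
  by_cases h20 : c < 7637
  · exact allRange_iff.mp chk_20 c (by omega) (by omega)
  by_cases h21 : c < 8127
  · exact allRange_iff.mp chk_21 c (by omega) (by omega)
  by_cases h22 : c < 8623
  · exact allRange_iff.mp chk_22 c (by omega) (by omega)
  by_cases h23 : c < 9120
  · exact allRange_iff.mp chk_23 c (by omega) (by omega)
  omega

end Cfsg.Agent.Lib.Helper79.HSM.LA
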