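import Cfsg.Agent.Lib.Helper79.HSM.LAData

set_option autoImplicit false
set_option maxRecDepth 100000

namespace Cfsg.Agent.Lib.Helper79.HSM.LA

open Cfsg.Agent.Lib.Helper28 Cfsg.Agent.Lib.Helper28.V2

theorem chk_120 : allRange D.checkLabel 68669 511 = true := by decide +kernel
theorem chk_121 : allRange D.checkLabel 69180 650 = true := by decide +kernel
theorem chk_122 : allRange D.checkLabel 69830 932 = true := by decide +kernel
theorem chk_123 : allRange D.checkLabel 70762 1049 = true := by decide +kernel
theorem chk_124 : allRange D.checkLabel 71811 948 = true := by decide +kernel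
theorem chk_125 : allRange D.checkLabel 72759 978 = true := by decide +kernel
theorem chk_126 : allRange D.checkLabel 73737 750 = true := by decide +kernel
theorem chk_127 : allRange D.checkLabel 74487 876 = true := by decide +kernel
theorem chk_128 : allRange D.checkLabel 75363 940 = true := by decide +kernel
theorem chk_129 : allRange D.checkLabel 76303 1034 = true := by decide +kernel
theorem chk_130 : allRange D.checkLabel 77337 933 = true := by decide +kernel
theorem chk_131 : allRange D.checkLabel 78270 1185 = true := by decide +kernel
theorem chkF_10 : ∀ c, 68669 ≤ c → c < 79455 → D.checkLabel c = true := by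
  intro c h1 h2
  by_cases h120 : c < 69180
  · exact allRange_iff.mp chk_120 c (by omega) (by omega)
  by_cases h121 : c < 69830
  · exact allRange_iff.mp chk_121 c (by omega) (by omega)
  by_cases h122 : c < 70762
  · exact allRange_iff.mp chk_122 c (by omega) (by omega)
  by_cases h123 : c < 71811
  · exact allRange_iff.mp chk_123 c (by omega) (by omega)
  by_cases h124 : c < 72759
  · exact allRange_iff.mp chk_124 c (by omega) (by omega)
  by_cases h125 : c < 73737
  · exact allRange_iff.mp chk_125 c (by omega) (by omega)
  by_cases h126 : c < 74487
  · exact allRange_iff.mp chk_126 c (by omega) (by omega)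
  by_cases h127 : c < 75363
  · exact allRange_iff.mp chk_127 c (by omega) (by omega)
  by_cases h128 : c < 76303
  · exact allRange_iff.mp chk_128 c (by omega) (by omega)
  by_cases h129 : c < 77337
  · exact allRange_iff.mp chk_129 c (by omega) (by omega)
  by_cases h130 : c < 78270
  · exact allRange_iff.mp chk_130 c (by omega) (by omega)
  by_cases h131 : c < 79455
  · exact allRange_iff.mp chk_131 c (by omega) (by omega)
  omega

end Cfsg.Agent.Lib.Helper79.HSM.LA
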