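import Cfsg.Agent.Lib.Helper79.HSM.LAData

set_option autoImplicit false
set_option maxRecDepth 100000

namespace Cfsg.Agent.Lib.Helper79.HSM.LA

open Cfsg.Agent.Lib.Helper28 Cfsg.Agent.Lib.Helper28.V2

theorem chk_132 : allRange D.checkLabel 79455 1133 = true := by decide +kernel
theorem chk_133 : allRange D.checkLabel 80588 1192 = true := by decide +kernel
theorem chk_134 : allRange D.checkLabel 81780 1098 = true := by decide +kernel
theorem chk_135 : allRange D.checkLabel 82878 1030 = true := by decide +kernel
theorem chk_136 : allRange D.checkLabel 83908 984 = true := by decide +kernel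
theorem chk_137 : allRange D.checkLabel 84892 1091 = true := by decide +kernel
theorem chk_138 : allRange D.checkLabel 85983 1061 = true := by decide +kernel
theorem chk_139 : allRange D.checkLabel 87044 1138 = true := by decide +kernel
theorem chk_140 : allRange D.checkLabel 88182 1171 = true := by decide +kernel
theorem chk_141 : allRange D.checkLabel 89353 1165 = true := by decide +kernel
theorem chk_142 : allRange D.checkLabel 90518 1215 = true := by decide +kernel
theorem chk_143 : allRange D.checkLabel 91733 1493 = true := by decide +kernel
theorem chkF_11 : ∀ c, 79455 ≤ c → c < 93226 → D.checkLabel c = true := by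
  intro c h1 h2
  by_cases h132 : c < 80588
  · exact allRange_iff.mp chk_132 c (by omega) (by omega)
  by_cases h133 : c < 81780
  · exact allRange_iff.mp chk_133 c (by omega) (by omega)
  by_cases h134 : c < 82878
  · exact allRange_iff.mp chk_134 c (by omega) (by omega)
  by_cases h135 : c < 83908
  · exact allRange_iff.mp chk_135 c (by omega) (by omega)
  by_cases h136 : c < 84892
  · exact allRange_iff.mp chk_136 c (by omega) (by omega)
  by_cases h137 : c < 85983
  · exact allRange_iff.mp chk_137 c (by omega) (by omega)
  by_cases h138 : c < 87044
  · exact allRange_iff.mp chk_138 c (by omega) (by omega)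
  by_cases h139 : c < 88182
  · exact allRange_iff.mp chk_139 c (by omega) (by omega)
  by_cases h140 : c < 89353
  · exact allRange_iff.mp chk_140 c (by omega) (by omega)
  by_cases h141 : c < 90518
  · exact allRange_iff.mp chk_141 c (by omega) (by omega)
  by_cases h142 : c < 91733
  · exact allRange_iff.mp chk_142 c (by omega) (by omega)
  by_cases h143 : c < 93226
  · exact allRange_iff.mp chk_143 c (by omega) (by omega)
  omega

end Cfsg.Agent.Lib.Helper79.HSM.LA
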