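import Cfsg.Agent.Lib.Helper79.HSM.LAData

set_option autoImplicit false
set_option maxRecDepth 100000

namespace Cfsg.Agent.Lib.Helper79.HSM.LA

open Cfsg.Agent.Lib.Helper28 Cfsg.Agent.Lib.Helper28.V2

theorem chk_156 : allRange D.checkLabel 105301 829 = true := by decide +kernel
theorem chk_157 : allRange D.checkLabel 106130 1043 = true := by decide +kernel
theorem chk_158 : allRange D.checkLabel 107173 972 = true := by decide +kernel
theorem chk_159 : allRange D.checkLabel 108145 1207 = true := by decide +kernel
theorem chk_160 : allRange D.checkLabel 109352 1170 = true := by decide +kernel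
theorem chk_161 : allRange D.checkLabel 110522 1312 = true := by decide +kernel
theorem chk_162 : allRange D.checkLabel 111834 1177 = true := by decide +kernel
theorem chk_163 : allRange D.checkLabel 113011 1195 = true := by decide +kernel
theorem chk_164 : allRange D.checkLabel 114206 1050 = true := by decide +kernel
theorem chk_165 : allRange D.checkLabel 115256 1293 = true := by decide +kernel
theorem chk_166 : allRange D.checkLabel 116549 1297 = true := by decide +kernel
theorem chk_167 : allRange D.checkLabel 117846 1008 = true := by decide +kernel
theorem chkF_13 : ∀ c, 105301 ≤ c → c < 118854 → D.checkLabel c = true := by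
  intro c h1 h2
  by_cases h156 : c < 106130
  · exact allRange_iff.mp chk_156 c (by omega) (by omega)
  by_cases h157 : c < 107173
  · exact allRange_iff.mp chk_157 c (by omega) (by omega)
  by_cases h158 : c < 108145
  · exact allRange_iff.mp chk_158 c (by omega) (by omega)
  by_cases h159 : c < 109352
  · exact allRange_iff.mp chk_159 c (by omega) (by omega)
  by_cases h160 : c < 110522
  · exact allRange_iff.mp chk_160 c (by omega) (by omega)
  by_cases h161 : c < 111834
  · exact allRange_iff.mp chk_161 c (by omega) (by omega)
  by_cases h162 : c < 113011
  · exact allRange_iff.mp chk_162 c (by omega) (by omega)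
  by_cases h163 : c < 114206
  · exact allRange_iff.mp chk_163 c (by omega) (by omega)
  by_cases h164 : c < 115256
  · exact allRange_iff.mp chk_164 c (by omega) (by omega)
  by_cases h165 : c < 116549
  · exact allRange_iff.mp chk_165 c (by omega) (by omega)
  by_cases h166 : c < 117846
  · exact allRange_iff.mp chk_166 c (by omega) (by omega)
  by_cases h167 : c < 118854
  · exact allRange_iff.mp chk_167 c (by omega) (by omega)
  omega

end Cfsg.Agent.Lib.Helper79.HSM.LA
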