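import Cfsg.Agent.Lib.Helper79.HSM.LAData

set_option autoImplicit false
set_option maxRecDepth 100000

namespace Cfsg.Agent.Lib.Helper79.HSM.LA

open Cfsg.Agent.Lib.Helper28 Cfsg.Agent.Lib.Helper28.V2

theorem chk_168 : allRange D.checkLabel 118854 1267 = true := by decide +kernel
theorem chk_169 : allRange D.checkLabel 120121 923 = true := by decide +kernel
theorem chk_170 : allRange D.checkLabel 121044 1266 = true := by decide +kernel
theorem chk_171 : allRange D.checkLabel 122310 1224 = true := by decide +kernel
theorem chk_172 : allRange D.checkLabel 123534 1071 = true := by decide +kernel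
theorem chk_173 : allRange D.checkLabel 124605 1328 = true := by decide +kernel
theorem chk_174 : allRange D.checkLabel 125933 1126 = true := by decide +kernel
theorem chk_175 : allRange D.checkLabel 127059 1151 = true := by decide +kernel
theorem chk_176 : allRange D.checkLabel 128210 311 = true := by decide +kernel
theorem chk_177 : allRange D.checkLabel 128521 100 = true := by decide +kernel
theorem chkF_14 : ∀ c, 118854 ≤ c → c < 128621 → D.checkLabel c = true := by
  intro c h1 h2
  by_cases h168 : c < 120121
  · exact allRange_iff.mp chk_168 c (by omega) (by omega)
  by_cases h169 : c < 121044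
  · exact allRange_iff.mp chk_169 c (by omega) (by omega)
  by_cases h170 : c < 122310
  · exact allRange_iff.mp chk_170 c (by omega) (by omega)
  by_cases h171 : c < 123534
  · exact allRange_iff.mp chk_171 c (by omega) (by omega)
  by_cases h172 : c < 124605
  · exact allRange_iff.mp chk_172 c (by omega) (by omega)
  by_cases h173 : c < 125933
  · exact allRange_iff.mp chk_173 c (by omega) (by omega)
  by_cases h174 : c < 127059
  · exact allRange_iff.mp chk_174 c (by omega) (by omega)
  by_cases h175 : c < 128210
  · exact allRange_iff.mp chk_175 c (by omega) (by omega)
  by_cases h176 : c < 128521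
  · exact allRange_iff.mp chk_176 c (by omega) (by omega)
  by_cases h177 : c < 128621
  · exact allRange_iff.mp chk_177 c (by omega) (by omega)
  omega

end Cfsg.Agent.Lib.Helper79.HSM.LA
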