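import Cfsg.Agent.Lib.Helper79.HSM.LAData

set_option autoImplicit false
set_option maxRecDepth 100000

namespace Cfsg.Agent.Lib.Helper79.HSM.LA

open Cfsg.Agent.Lib.Helper28 Cfsg.Agent.Lib.Helper28.V2

theorem chk_24 : allRange D.checkLabel 9120 496 = true := by decide +kernel
theorem chk_25 : allRange D.checkLabel 9616 519 = true := by decide +kernel
theorem chk_26 : allRange D.checkLabel 10135 605 = true := by decide +kernel
theorem chk_27 : allRange D.checkLabel 10740 619 = true := by decide +kernel
theorem chk_28 : allRange D.checkLabel 11359 748 = true := by decide +kernel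
theorem chk_29 : allRange D.checkLabel 12107 702 = true := by decide +kernel
theorem chk_30 : allRange D.checkLabel 12809 647 = true := by decide +kernel
theorem chk_31 : allRange D.checkLabel 13456 804 = true := by decide +kernel
theorem chk_32 : allRange D.checkLabel 14260 508 = true := by decide +kernel
theorem chk_33 : allRange D.checkLabel 14768 502 = true := by decide +kernel
theorem chk_34 : allRange D.checkLabel 15270 619 = true := by decide +kernel
theorem chk_35 : allRange D.checkLabel 15889 545 = true := by decide +kernel
theorem chkF_2 : ∀ c, 9120 ≤ c → c < 16434 → D.checkLabel c = true := by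
  intro c h1 h2
  by_cases h24 : c < 9616
  · exact allRange_iff.mp chk_24 c (by omega) (by omega)
  by_cases h25 : c < 10135
  · exact allRange_iff.mp chk_25 c (by omega) (by omega)
  by_cases h26 : c < 10740
  · exact allRange_iff.mp chk_26 c (by omega) (by omega)
  by_cases h27 : c < 11359
  · exact allRange_iff.mp chk_27 c (by omega) (by omega)
  by_cases h28 : c < 12107
  · exact allRange_iff.mp chk_28 c (by omega) (by omega)
  by_cases h29 : c < 12809
  · exact allRange_iff.mp chk_29 c (by omega) (by omega)
  by_cases h30 : c < 13456
  · exact allRange_iff.mp chk_30 c (by omega) (by omega)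
  by_cases h31 : c < 14260
  · exact allRange_iff.mp chk_31 c (by omega) (by omega)
  by_cases h32 : c < 14768
  · exact allRange_iff.mp chk_32 c (by omega) (by omega)
  by_cases h33 : c < 15270
  · exact allRange_iff.mp chk_33 c (by omega) (by omega)
  by_cases h34 : c < 15889
  · exact allRange_iff.mp chk_34 c (by omega) (by omega)
  by_cases h35 : c < 16434
  · exact allRange_iff.mp chk_35 c (by omega) (by omega)
  omega

end Cfsg.Agent.Lib.Helper79.HSM.LA
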