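import Cfsg.Agent.Lib.Helper79.HSM.LAData

set_option autoImplicit false
set_option maxRecDepth 100000

namespace Cfsg.Agent.Lib.Helper79.HSM.LA

open Cfsg.Agent.Lib.Helper28 Cfsg.Agent.Lib.Helper28.V2

theorem chk_36 : allRange D.checkLabel 16434 393 = true := by decide +kernel
theorem chk_37 : allRange D.checkLabel 16827 343 = true := by decide +kernel
theorem chk_38 : allRange D.checkLabel 17170 343 = true := by decide +kernel
theorem chk_39 : allRange D.checkLabel 17513 494 = true := by decide +kernel
theorem chk_40 : allRange D.checkLabel 18007 435 = true := by decide +kernel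
theorem chk_41 : allRange D.checkLabel 18442 482 = true := by decide +kernel
theorem chk_42 : allRange D.checkLabel 18924 542 = true := by decide +kernel
theorem chk_43 : allRange D.checkLabel 19466 449 = true := by decide +kernel
theorem chk_44 : allRange D.checkLabel 19915 520 = true := by decide +kernel
theorem chk_45 : allRange D.checkLabel 20435 495 = true := by decide +kernel
theorem chk_46 : allRange D.checkLabel 20930 575 = true := by decide +kernel
theorem chk_47 : allRange D.checkLabel 21505 586 = true := by decide +kernel
theorem chkF_3 : ∀ c, 16434 ≤ c → c < 22091 → D.checkLabel c = true := by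
  intro c h1 h2
  by_cases h36 : c < 16827
  · exact allRange_iff.mp chk_36 c (by omega) (by omega)
  by_cases h37 : c < 17170
  · exact allRange_iff.mp chk_37 c (by omega) (by omega)
  by_cases h38 : c < 17513
  · exact allRange_iff.mp chk_38 c (by omega) (by omega)
  by_cases h39 : c < 18007
  · exact allRange_iff.mp chk_39 c (by omega) (by omega)
  by_cases h40 : c < 18442
  · exact allRange_iff.mp chk_40 c (by omega) (by omega)
  by_cases h41 : c < 18924
  · exact allRange_iff.mp chk_41 c (by omega) (by omega)
  by_cases h42 : c < 19466
  · exact allRange_iff.mp chk_42 c (by omega) (by omega)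
  by_cases h43 : c < 19915
  · exact allRange_iff.mp chk_43 c (by omega) (by omega)
  by_cases h44 : c < 20435
  · exact allRange_iff.mp chk_44 c (by omega) (by omega)
  by_cases h45 : c < 20930
  · exact allRange_iff.mp chk_45 c (by omega) (by omega)
  by_cases h46 : c < 21505
  · exact allRange_iff.mp chk_46 c (by omega) (by omega)
  by_cases h47 : c < 22091
  · exact allRange_iff.mp chk_47 c (by omega) (by omega)
  omega

end Cfsg.Agent.Lib.Helper79.HSM.LA
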