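import Cfsg.Agent.Lib.Helper79.HSM.LAData

set_option autoImplicit false
set_option maxRecDepth 100000

namespace Cfsg.Agent.Lib.Helper79.HSM.LA

open Cfsg.Agent.Lib.Helper28 Cfsg.Agent.Lib.Helper28.V2

theorem chk_48 : allRange D.checkLabel 22091 601 = true := by decide +kernel
theorem chk_49 : allRange D.checkLabel 22692 361 = true := by decide +kernel
theorem chk_50 : allRange D.checkLabel 23053 487 = true := by decide +kernel
theorem chk_51 : allRange D.checkLabel 23540 492 = true := by decide +kernel
theorem chk_52 : allRange D.checkLabel 24032 479 = true := by decide +kernel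
theorem chk_53 : allRange D.checkLabel 24511 606 = true := by decide +kernel
theorem chk_54 : allRange D.checkLabel 25117 593 = true := by decide +kernel
theorem chk_55 : allRange D.checkLabel 25710 557 = true := by decide +kernel
theorem chk_56 : allRange D.checkLabel 26267 627 = true := by decide +kernel
theorem chk_57 : allRange D.checkLabel 26894 467 = true := by decide +kernel
theorem chk_58 : allRange D.checkLabel 27361 619 = true := by decide +kernel
theorem chk_59 : allRange D.checkLabel 27980 595 = true := by decide +kernel
theorem chkF_4 : ∀ c, 22091 ≤ c → c < 28575 → D.checkLabel c = true := by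
  intro c h1 h2
  by_cases h48 : c < 22692
  · exact allRange_iff.mp chk_48 c (by omega) (by omega)
  by_cases h49 : c < 23053
  · exact allRange_iff.mp chk_49 c (by omega) (by omega)
  by_cases h50 : c < 23540
  · exact allRange_iff.mp chk_50 c (by omega) (by omega)
  by_cases h51 : c < 24032
  · exact allRange_iff.mp chk_51 c (by omega) (by omega)
  by_cases h52 : c < 24511
  · exact allRange_iff.mp chk_52 c (by omega) (by omega)
  by_cases h53 : c < 25117
  · exact allRange_iff.mp chk_53 c (by omega) (by omega)
  by_cases h54 : c < 25710
  · exact allRange_iff.mp chk_54 c (by omega) (by omega)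
  by_cases h55 : c < 26267
  · exact allRange_iff.mp chk_55 c (by omega) (by omega)
  by_cases h56 : c < 26894
  · exact allRange_iff.mp chk_56 c (by omega) (by omega)
  by_cases h57 : c < 27361
  · exact allRange_iff.mp chk_57 c (by omega) (by omega)
  by_cases h58 : c < 27980
  · exact allRange_iff.mp chk_58 c (by omega) (by omega)
  by_cases h59 : c < 28575
  · exact allRange_iff.mp chk_59 c (by omega) (by omega)
  omega

end Cfsg.Agent.Lib.Helper79.HSM.LA
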