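import Cfsg.Agent.Lib.Helper79.HSM.LAData

set_option autoImplicit false
set_option maxRecDepth 100000

namespace Cfsg.Agent.Lib.Helper79.HSM.LA

open Cfsg.Agent.Lib.Helper28 Cfsg.Agent.Lib.Helper28.V2

theorem chk_60 : allRange D.checkLabel 28575 569 = true := by decide +kernel
theorem chk_61 : allRange D.checkLabel 29144 569 = true := by decide +kernel
theorem chk_62 : allRange D.checkLabel 29713 573 = true := by decide +kernel
theorem chk_63 : allRange D.checkLabel 30286 580 = true := by decide +kernel
theorem chk_64 : allRange D.checkLabel 30866 437 = true := by decide +kernel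
theorem chk_65 : allRange D.checkLabel 31303 433 = true := by decide +kernel
theorem chk_66 : allRange D.checkLabel 31736 437 = true := by decide +kernel
theorem chk_67 : allRange D.checkLabel 32173 551 = true := by decide +kernel
theorem chk_68 : allRange D.checkLabel 32724 524 = true := by decide +kernel
theorem chk_69 : allRange D.checkLabel 33248 529 = true := by decide +kernel
theorem chk_70 : allRange D.checkLabel 33777 786 = true := by decide +kernel
theorem chk_71 : allRange D.checkLabel 34563 490 = true := by decide +kernel
theorem chkF_5 : ∀ c, 28575 ≤ c → c < 35053 → D.checkLabel c = true := by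
  intro c h1 h2
  by_cases h60 : c < 29144
  · exact allRange_iff.mp chk_60 c (by omega) (by omega)
  by_cases h61 : c < 29713
  · exact allRange_iff.mp chk_61 c (by omega) (by omega)
  by_cases h62 : c < 30286
  · exact allRange_iff.mp chk_62 c (by omega) (by omega)
  by_cases h63 : c < 30866
  · exact allRange_iff.mp chk_63 c (by omega) (by omega)
  by_cases h64 : c < 31303
  · exact allRange_iff.mp chk_64 c (by omega) (by omega)
  by_cases h65 : c < 31736
  · exact allRange_iff.mp chk_65 c (by omega) (by omega)
  by_cases h66 : c < 32173
  · exact allRange_iff.mp chk_66 c (by omega) (by omega)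
  by_cases h67 : c < 32724
  · exact allRange_iff.mp chk_67 c (by omega) (by omega)
  by_cases h68 : c < 33248
  · exact allRange_iff.mp chk_68 c (by omega) (by omega)
  by_cases h69 : c < 33777
  · exact allRange_iff.mp chk_69 c (by omega) (by omega)
  by_cases h70 : c < 34563
  · exact allRange_iff.mp chk_70 c (by omega) (by omega)
  by_cases h71 : c < 35053
  · exact allRange_iff.mp chk_71 c (by omega) (by omega)
  omega

end Cfsg.Agent.Lib.Helper79.HSM.LA
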