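import Cfsg.Agent.Lib.Helper79.HSM.LAData

set_option autoImplicit false
set_option maxRecDepth 100000

namespace Cfsg.Agent.Lib.Helper79.HSM.LA

open Cfsg.Agent.Lib.Helper28 Cfsg.Agent.Lib.Helper28.V2

theorem chk_72 : allRange D.checkLabel 35053 535 = true := by decide +kernel
theorem chk_73 : allRange D.checkLabel 35588 480 = true := by decide +kernel
theorem chk_74 : allRange D.checkLabel 36068 708 = true := by decide +kernel
theorem chk_75 : allRange D.checkLabel 36776 496 = true := by decide +kernel
theorem chk_76 : allRange D.checkLabel 37272 596 = true := by decide +kernel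
theorem chk_77 : allRange D.checkLabel 37868 592 = true := by decide +kernel
theorem chk_78 : allRange D.checkLabel 38460 568 = true := by decide +kernel
theorem chk_79 : allRange D.checkLabel 39028 571 = true := by decide +kernel
theorem chk_80 : allRange D.checkLabel 39599 492 = true := by decide +kernel
theorem chk_81 : allRange D.checkLabel 40091 634 = true := by decide +kernel
theorem chk_82 : allRange D.checkLabel 40725 501 = true := by decide +kernel
theorem chk_83 : allRange D.checkLabel 41226 701 = true := by decide +kernel
theorem chkF_6 : ∀ c, 35053 ≤ c → c < 41927 → D.checkLabel c = true := by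
  intro c h1 h2
  by_cases h72 : c < 35588
  · exact allRange_iff.mp chk_72 c (by omega) (by omega)
  by_cases h73 : c < 36068
  · exact allRange_iff.mp chk_73 c (by omega) (by omega)
  by_cases h74 : c < 36776
  · exact allRange_iff.mp chk_74 c (by omega) (by omega)
  by_cases h75 : c < 37272
  · exact allRange_iff.mp chk_75 c (by omega) (by omega)
  by_cases h76 : c < 37868
  · exact allRange_iff.mp chk_76 c (by omega) (by omega)
  by_cases h77 : c < 38460
  · exact allRange_iff.mp chk_77 c (by omega) (by omega)
  by_cases h78 : c < 39028
  · exact allRange_iff.mp chk_78 c (by omega) (by omega)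
  by_cases h79 : c < 39599
  · exact allRange_iff.mp chk_79 c (by omega) (by omega)
  by_cases h80 : c < 40091
  · exact allRange_iff.mp chk_80 c (by omega) (by omega)
  by_cases h81 : c < 40725
  · exact allRange_iff.mp chk_81 c (by omega) (by omega)
  by_cases h82 : c < 41226
  · exact allRange_iff.mp chk_82 c (by omega) (by omega)
  by_cases h83 : c < 41927
  · exact allRange_iff.mp chk_83 c (by omega) (by omega)
  omega

end Cfsg.Agent.Lib.Helper79.HSM.LA
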