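import Cfsg.Agent.Lib.Helper79.HSM.LAData

set_option autoImplicit false
set_option maxRecDepth 100000

namespace Cfsg.Agent.Lib.Helper79.HSM.LA

open Cfsg.Agent.Lib.Helper28 Cfsg.Agent.Lib.Helper28.V2

theorem chk_84 : allRange D.checkLabel 41927 564 = true := by decide +kernel
theorem chk_85 : allRange D.checkLabel 42491 673 = true := by decide +kernel
theorem chk_86 : allRange D.checkLabel 43164 697 = true := by decide +kernel
theorem chk_87 : allRange D.checkLabel 43861 747 = true := by decide +kernel
theorem chk_88 : allRange D.checkLabel 44608 699 = true := by decide +kernel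
theorem chk_89 : allRange D.checkLabel 45307 598 = true := by decide +kernel
theorem chk_90 : allRange D.checkLabel 45905 797 = true := by decide +kernel
theorem chk_91 : allRange D.checkLabel 46702 778 = true := by decide +kernel
theorem chk_92 : allRange D.checkLabel 47480 727 = true := by decide +kernel
theorem chk_93 : allRange D.checkLabel 48207 777 = true := by decide +kernel
theorem chk_94 : allRange D.checkLabel 48984 576 = true := by decide +kernel
theorem chk_95 : allRange D.checkLabel 49560 792 = true := by decide +kernel
theorem chkF_7 : ∀ c, 41927 ≤ c → c < 50352 → D.checkLabel c = true := by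
  intro c h1 h2
  by_cases h84 : c < 42491
  · exact allRange_iff.mp chk_84 c (by omega) (by omega)
  by_cases h85 : c < 43164
  · exact allRange_iff.mp chk_85 c (by omega) (by omega)
  by_cases h86 : c < 43861
  · exact allRange_iff.mp chk_86 c (by omega) (by omega)
  by_cases h87 : c < 44608
  · exact allRange_iff.mp chk_87 c (by omega) (by omega)
  by_cases h88 : c < 45307
  · exact allRange_iff.mp chk_88 c (by omega) (by omega)
  by_cases h89 : c < 45905
  · exact allRange_iff.mp chk_89 c (by omega) (by omega)
  by_cases h90 : c < 46702
  · exact allRange_iff.mp chk_90 c (by omega) (by omega)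
  by_cases h91 : c < 47480
  · exact allRange_iff.mp chk_91 c (by omega) (by omega)
  by_cases h92 : c < 48207
  · exact allRange_iff.mp chk_92 c (by omega) (by omega)
  by_cases h93 : c < 48984
  · exact allRange_iff.mp chk_93 c (by omega) (by omega)
  by_cases h94 : c < 49560
  · exact allRange_iff.mp chk_94 c (by omega) (by omega)
  by_cases h95 : c < 50352
  · exact allRange_iff.mp chk_95 c (by omega) (by omega)
  omega

end Cfsg.Agent.Lib.Helper79.HSM.LA
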