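import Cfsg.Agent.Lib.Helper79.HSM.LAData

set_option autoImplicit false
set_option maxRecDepth 100000

namespace Cfsg.Agent.Lib.Helper79.HSM.LA

open Cfsg.Agent.Lib.Helper28 Cfsg.Agent.Lib.Helper28.V2

theorem chk_96 : allRange D.checkLabel 50352 521 = true := by decide +kernel
theorem chk_97 : allRange D.checkLabel 50873 627 = true := by decide +kernel
theorem chk_98 : allRange D.checkLabel 51500 674 = true := by decide +kernel
theorem chk_99 : allRange D.checkLabel 52174 676 = true := by decide +kernel
theorem chk_100 : allRange D.checkLabel 52850 781 = true := by decide +kernel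
theorem chk_101 : allRange D.checkLabel 53631 700 = true := by decide +kernel
theorem chk_102 : allRange D.checkLabel 54331 688 = true := by decide +kernel
theorem chk_103 : allRange D.checkLabel 55019 664 = true := by decide +kernel
theorem chk_104 : allRange D.checkLabel 55683 654 = true := by decide +kernel
theorem chk_105 : allRange D.checkLabel 56337 533 = true := by decide +kernel
theorem chk_106 : allRange D.checkLabel 56870 728 = true := by decide +kernel
theorem chk_107 : allRange D.checkLabel 57598 989 = true := by decide +kernel
theorem chkF_8 : ∀ c, 50352 ≤ c → c < 58587 → D.checkLabel c = true := by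
  intro c h1 h2
  by_cases h96 : c < 50873
  · exact allRange_iff.mp chk_96 c (by omega) (by omega)
  by_cases h97 : c < 51500
  · exact allRange_iff.mp chk_97 c (by omega) (by omega)
  by_cases h98 : c < 52174
  · exact allRange_iff.mp chk_98 c (by omega) (by omega)
  by_cases h99 : c < 52850
  · exact allRange_iff.mp chk_99 c (by omega) (by omega)
  by_cases h100 : c < 53631
  · exact allRange_iff.mp chk_100 c (by omega) (by omega)
  by_cases h101 : c < 54331
  · exact allRange_iff.mp chk_101 c (by omega) (by omega)
  by_cases h102 : c < 55019
  · exact allRange_iff.mp chk_102 c (by omega) (by omega)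
  by_cases h103 : c < 55683
  · exact allRange_iff.mp chk_103 c (by omega) (by omega)
  by_cases h104 : c < 56337
  · exact allRange_iff.mp chk_104 c (by omega) (by omega)
  by_cases h105 : c < 56870
  · exact allRange_iff.mp chk_105 c (by omega) (by omega)
  by_cases h106 : c < 57598
  · exact allRange_iff.mp chk_106 c (by omega) (by omega)
  by_cases h107 : c < 58587
  · exact allRange_iff.mp chk_107 c (by omega) (by omega)
  omega

end Cfsg.Agent.Lib.Helper79.HSM.LA
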