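import Cfsg.Agent.Lib.Helper79.HSM.LAData

set_option autoImplicit false
set_option maxRecDepth 100000

namespace Cfsg.Agent.Lib.Helper79.HSM.LA

open Cfsg.Agent.Lib.Helper28 Cfsg.Agent.Lib.Helper28.V2

theorem chk_108 : allRange D.checkLabel 58587 991 = true := by decide +kernel
theorem chk_109 : allRange D.checkLabel 59578 765 = true := by decide +kernel
theorem chk_110 : allRange D.checkLabel 60343 921 = true := by decide +kernel
theorem chk_111 : allRange D.checkLabel 61264 640 = true := by decide +kernel
theorem chk_112 : allRange D.checkLabel 61904 886 = true := by decide +kernel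
theorem chk_113 : allRange D.checkLabel 62790 1061 = true := by decide +kernel
theorem chk_114 : allRange D.checkLabel 63851 574 = true := by decide +kernel
theorem chk_115 : allRange D.checkLabel 64425 716 = true := by decide +kernel
theorem chk_116 : allRange D.checkLabel 65141 704 = true := by decide +kernel
theorem chk_117 : allRange D.checkLabel 65845 925 = true := by decide +kernel
theorem chk_118 : allRange D.checkLabel 66770 910 = true := by decide +kernel
theorem chk_119 : allRange D.checkLabel 67680 989 = true := by decide +kernel
theorem chkF_9 : ∀ c, 58587 ≤ c → c < 68669 → D.checkLabel c = true := by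
  intro c h1 h2
  by_cases h108 : c < 59578
  · exact allRange_iff.mp chk_108 c (by omega) (by omega)
  by_cases h109 : c < 60343
  · exact allRange_iff.mp chk_109 c (by omega) (by omega)
  by_cases h110 : c < 61264
  · exact allRange_iff.mp chk_110 c (by omega) (by omega)
  by_cases h111 : c < 61904
  · exact allRange_iff.mp chk_111 c (by omega) (by omega)
  by_cases h112 : c < 62790
  · exact allRange_iff.mp chk_112 c (by omega) (by omega)
  by_cases h113 : c < 63851
  · exact allRange_iff.mp chk_113 c (by omega) (by omega)
  by_cases h114 : c < 64425
  · exact allRange_iff.mp chk_114 c (by omega) (by omega)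
  by_cases h115 : c < 65141
  · exact allRange_iff.mp chk_115 c (by omega) (by omega)
  by_cases h116 : c < 65845
  · exact allRange_iff.mp chk_116 c (by omega) (by omega)
  by_cases h117 : c < 66770
  · exact allRange_iff.mp chk_117 c (by omega) (by omega)
  by_cases h118 : c < 67680
  · exact allRange_iff.mp chk_118 c (by omega) (by omega)
  by_cases h119 : c < 68669
  · exact allRange_iff.mp chk_119 c (by omega) (by omega)
  omega

end Cfsg.Agent.Lib.Helper79.HSM.LA
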