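import Cfsg.Agent.Lib.Helper79.HSM.LAC0
import Cfsg.Agent.Lib.Helper79.HSM.LAC1
import Cfsg.Agent.Lib.Helper79.HSM.LAC2
import Cfsg.Agent.Lib.Helper79.HSM.LAC3
import Cfsg.Agent.Lib.Helper79.HSM.LAC4
import Cfsg.Agent.Lib.Helper79.HSM.LAC5
import Cfsg.Agent.Lib.Helper79.HSM.LAC6
import Cfsg.Agent.Lib.Helper79.HSM.LAC7
import Cfsg.Agent.Lib.Helper79.HSM.LAC8
import Cfsg.Agent.Lib.Helper79.HSM.LAC9
import Cfsg.Agent.Lib.Helper79.HSM.LAC10
import Cfsg.Agent.Lib.Helper79.HSM.LAC11
import Cfsg.Agent.Lib.Helper79.HSM.LAC12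
import Cfsg.Agent.Lib.Helper79.HSM.LAC13
import Cfsg.Agent.Lib.Helper79.HSM.LAC14

set_option autoImplicit false
set_option maxRecDepth 100000

namespace Cfsg.Agent.Lib.Helper79.HSM.LA

open Cfsg.Agent.Lib.Helper28 Cfsg.Agent.Lib.Helper28.V2

theorem check_all : ∀ c < D.m, D.checkLabel c = true := by
  intro c hc
  have hc' : c < 128621 := hc
  by_cases h0 : c < 3998
  · exact chkF_0 c (by omega) (by omega)
  by_cases h1 : c < 9120
  · exact chkF_1 c (by omega) (by omega)
  by_cases h2 : c < 16434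
  · exact chkF_2 c (by omega) (by omega)
  by_cases h3 : c < 22091
  · exact chkF_3 c (by omega) (by omega)
  by_cases h4 : c < 28575
  · exact chkF_4 c (by omega) (by omega)
  by_cases h5 : c < 35053
  · exact chkF_5 c (by omega) (by omega)
  by_cases h6 : c < 41927
  · exact chkF_6 c (by omega) (by omega)
  by_cases h7 : c < 50352
  · exact chkF_7 c (by omega) (by omega)
  by_cases h8 : c < 58587
  · exact chkF_8 c (by omega) (by omega)
  by_cases h9 : c < 68669
  · exact chkF_9 c (by omega) (by omega)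
  by_cases h10 : c < 79455
  · exact chkF_10 c (by omega) (by omega)
  by_cases h11 : c < 93226
  · exact chkF_11 c (by omega) (by omega)
  by_cases h12 : c < 105301
  · exact chkF_12 c (by omega) (by omega)
  by_cases h13 : c < 118854
  · exact chkF_13 c (by omega) (by omega)
  by_cases h14 : c < 128621
  · exact chkF_14 c (by omega) (by omega)
  omega
theorem pairs_ok : pairsC.all (pairOK (relsAll relsL invL 29) invL 28 29) = true := by decide +kernel
theorem relsK_ok : ∀ r ∈ relsAll relsL invL 29, ∀ y ∈ r, y < 29 := by decide +kernel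
theorem relsL_lt : ∀ r ∈ relsL, ∀ y ∈ r, y < 28 := by decide +kernel
theorem relsL_map : relsL.map (fun r => r.map ren) = W := by decide +kernel
theorem dpairs_ok : D.pairs = pairsC.map Prod.fst := by decide +kernel
theorem fin_all : allBelow D.finalLabel 128621 = true := by decide +kernel
theorem live_count : D.liveCount = 11200 := by decide +kernel
theorem h0_ok : D.tg D.K 0 = 0 := by decide +kernel
theorem ok : Lk.OK W oinv Cfsg.Agent.Lib.Helper79.HSM.C.K [0, 1, 2, 3, 4, 5] [0, 1, 2, 3] where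
  Kall := rfl
  invK := by decide +kernel
  invE := rfl
  relsIn := by
    intro r hr
    refine ⟨relsL_lt r hr, ?_⟩
    rw [← relsL_map]
    exact List.mem_map_of_mem (f := fun r => r.map ren) hr
  Dpairs := dpairs_ok
  pairs := pairs_ok
  relsK := relsK_ok
  isSub := by
    intro x hx
    have hx' : subL.contains x = true := hx
    show x ∈ subL
    simpa using hx'
  sub := by decide +kernel
  check := check_all
  gens := by decide +kernel
  hm := by decide
  h0 := h0_ok
  fin := allBelow_iff.mp fin_all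
  count := live_count

theorem card_le {Γ : Type*} [Group Γ] (g : ℕ → Γ) (hW : ∀ t, evalW (Cfsg.Agent.Lib.Helper79.HSM.C.val g) (Cfsg.Agent.Lib.Helper79.HSM.C.word t) = 1)
    (hB : Finite (Sg (Cfsg.Agent.Lib.Helper79.HSM.C.val g) [0, 1, 2, 3])) :
    Finite (Sg (Cfsg.Agent.Lib.Helper79.HSM.C.val g) [0, 1, 2, 3, 4, 5]) ∧
      Nat.card (Sg (Cfsg.Agent.Lib.Helper79.HSM.C.val g) [0, 1, 2, 3, 4, 5]) ≤ 11200 * Nat.card (Sg (Cfsg.Agent.Lib.Helper79.HSM.C.val g) [0, 1, 2, 3]) :=
  ok.card_le _ (by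
    intro w hw
    obtain ⟨t, _, rfl⟩ := List.mem_map.mp hw
    exact hW t) (fun y _ => Cov.val_oinv g y) hB

end Cfsg.Agent.Lib.Helper79.HSM.LA
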