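import Cfsg.Agent.Lib.Helper79.HSM.LAData

set_option autoImplicit false
set_option maxRecDepth 100000

namespace Cfsg.Agent.Lib.Helper79.HSM.LA

open Cfsg.Agent.Lib.Helper28 Cfsg.Agent.Lib.Helper28.V2

theorem chk_0 : allRange D.checkLabel 0 289 = true := by decide +kernel
theorem chk_1 : allRange D.checkLabel 289 273 = true := by decide +kernel
theorem chk_2 : allRange D.checkLabel 562 287 = true := by decide +kernel
theorem chk_3 : allRange D.checkLabel 849 331 = true := by decide +kernel
theorem chk_4 : allRange D.checkLabel 1180 303 = true := by decide +kernel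
theorem chk_5 : allRange D.checkLabel 1483 352 = true := by decide +kernel
theorem chk_6 : allRange D.checkLabel 1835 340 = true := by decide +kernel
theorem chk_7 : allRange D.checkLabel 2175 387 = true := by decide +kernel
theorem chk_8 : allRange D.checkLabel 2562 351 = true := by decide +kernel
theorem chk_9 : allRange D.checkLabel 2913 326 = true := by decide +kernel
theorem chk_10 : allRange D.checkLabel 3239 377 = true := by decide +kernel
theorem chk_11 : allRange D.checkLabel 3616 382 = true := by decide +kernel
theorem chkF_0 : ∀ c, 0 ≤ c → c < 3998 → D.checkLabel c = true := by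
  intro c h1 h2
  by_cases h0 : c < 289
  · exact allRange_iff.mp chk_0 c (by omega) (by omega)
  by_cases h1 : c < 562
  · exact allRange_iff.mp chk_1 c (by omega) (by omega)
  by_cases h2 : c < 849
  · exact allRange_iff.mp chk_2 c (by omega) (by omega)
  by_cases h3 : c < 1180
  · exact allRange_iff.mp chk_3 c (by omega) (by omega)
  by_cases h4 : c < 1483
  · exact allRange_iff.mp chk_4 c (by omega) (by omega)
  by_cases h5 : c < 1835
  · exact allRange_iff.mp chk_5 c (by omega) (by omega)
  by_cases h6 : c < 2175
  · exact allRange_iff.mp chk_6 c (by omega) (by omega)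
  by_cases h7 : c < 2562
  · exact allRange_iff.mp chk_7 c (by omega) (by omega)
  by_cases h8 : c < 2913
  · exact allRange_iff.mp chk_8 c (by omega) (by omega)
  by_cases h9 : c < 3239
  · exact allRange_iff.mp chk_9 c (by omega) (by omega)
  by_cases h10 : c < 3616
  · exact allRange_iff.mp chk_10 c (by omega) (by omega)
  by_cases h11 : c < 3998
  · exact allRange_iff.mp chk_11 c (by omega) (by omega)
  omega

end Cfsg.Agent.Lib.Helper79.HSM.LA
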