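import Cfsg.Agent.Lib.Helper79.HSM.LAData

set_option autoImplicit false
set_option maxRecDepth 100000

namespace Cfsg.Agent.Lib.Helper79.HSM.LA

open Cfsg.Agent.Lib.Helper28 Cfsg.Agent.Lib.Helper28.V2

theorem chk_144 : allRange D.checkLabel 93226 1402 = true := by decide +kernel
theorem chk_145 : allRange D.checkLabel 94628 1363 = true := by decide +kernel
theorem chk_146 : allRange D.checkLabel 95991 1257 = true := by decide +kernel
theorem chk_147 : allRange D.checkLabel 97248 1174 = true := by decide +kernel
theorem chk_148 : allRange D.checkLabel 98422 908 = true := by decide +kernel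
theorem chk_149 : allRange D.checkLabel 99330 765 = true := by decide +kernel
theorem chk_150 : allRange D.checkLabel 100095 804 = true := by decide +kernel
theorem chk_151 : allRange D.checkLabel 100899 698 = true := by decide +kernel
theorem chk_152 : allRange D.checkLabel 101597 991 = true := by decide +kernel
theorem chk_153 : allRange D.checkLabel 102588 882 = true := by decide +kernel
theorem chk_154 : allRange D.checkLabel 103470 901 = true := by decide +kernel
theorem chk_155 : allRange D.checkLabel 104371 930 = true := by decide +kernel
theorem chkF_12 : ∀ c, 93226 ≤ c → c < 105301 → D.checkLabel c = true := by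
  intro c h1 h2
  by_cases h144 : c < 94628
  · exact allRange_iff.mp chk_144 c (by omega) (by omega)
  by_cases h145 : c < 95991
  · exact allRange_iff.mp chk_145 c (by omega) (by omega)
  by_cases h146 : c < 97248
  · exact allRange_iff.mp chk_146 c (by omega) (by omega)
  by_cases h147 : c < 98422
  · exact allRange_iff.mp chk_147 c (by omega) (by omega)
  by_cases h148 : c < 99330
  · exact allRange_iff.mp chk_148 c (by omega) (by omega)
  by_cases h149 : c < 100095
  · exact allRange_iff.mp chk_149 c (by omega) (by omega)
  by_cases h150 : c < 100899
  · exact allRange_iff.mp chk_150 c (by omega) (by omega)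
  by_cases h151 : c < 101597
  · exact allRange_iff.mp chk_151 c (by omega) (by omega)
  by_cases h152 : c < 102588
  · exact allRange_iff.mp chk_152 c (by omega) (by omega)
  by_cases h153 : c < 103470
  · exact allRange_iff.mp chk_153 c (by omega) (by omega)
  by_cases h154 : c < 104371
  · exact allRange_iff.mp chk_154 c (by omega) (by omega)
  by_cases h155 : c < 105301
  · exact allRange_iff.mp chk_155 c (by omega) (by omega)
  omega

end Cfsg.Agent.Lib.Helper79.HSM.LA
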