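import Cfsg.Agent.Lib.Helper79.HSM.LCData

set_option autoImplicit false
set_option maxRecDepth 100000

namespace Cfsg.Agent.Lib.Helper79.HSM.LC

open Cfsg.Agent.Lib.Helper28 Cfsg.Agent.Lib.Helper28.V2

theorem chk_12 : allRange D.checkLabel 7763 794 = true := by decide +kernel
theorem chk_13 : allRange D.checkLabel 8557 935 = true := by decide +kernel
theorem chk_14 : allRange D.checkLabel 9492 946 = true := by decide +kernel
theorem chk_15 : allRange D.checkLabel 10438 1218 = true := by decide +kernel
theorem chk_16 : allRange D.checkLabel 11656 1142 = true := by decide +kernel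
theorem chk_17 : allRange D.checkLabel 12798 889 = true := by decide +kernel
theorem chk_18 : allRange D.checkLabel 13687 853 = true := by decide +kernel
theorem chk_19 : allRange D.checkLabel 14540 1007 = true := by decide +kernel
theorem chk_20 : allRange D.checkLabel 15547 1094 = true := by decide +kernel
theorem chk_21 : allRange D.checkLabel 16641 1198 = true := by decide +kernel
theorem chk_22 : allRange D.checkLabel 17839 1265 = true := by decide +kernel
theorem chk_23 : allRange D.checkLabel 19104 1065 = true := by decide +kernel
theorem chkF_1 : ∀ c, 7763 ≤ c → c < 20169 → D.checkLabel c = true := by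
  intro c h1 h2
  by_cases h12 : c < 8557
  · exact allRange_iff.mp chk_12 c (by omega) (by omega)
  by_cases h13 : c < 9492
  · exact allRange_iff.mp chk_13 c (by omega) (by omega)
  by_cases h14 : c < 10438
  · exact allRange_iff.mp chk_14 c (by omega) (by omega)
  by_cases h15 : c < 11656
  · exact allRange_iff.mp chk_15 c (by omega) (by omega)
  by_cases h16 : c < 12798
  · exact allRange_iff.mp chk_16 c (by omega) (by omega)
  by_cases h17 : c < 13687
  · exact allRange_iff.mp chk_17 c (by omega) (by omega)
  by_cases h18 : c < 14540
  · exact allRange_iff.mp chk_18 c (by omega) (by omega)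
  by_cases h19 : c < 15547
  · exact allRange_iff.mp chk_19 c (by omega) (by omega)
  by_cases h20 : c < 16641
  · exact allRange_iff.mp chk_20 c (by omega) (by omega)
  by_cases h21 : c < 17839
  · exact allRange_iff.mp chk_21 c (by omega) (by omega)
  by_cases h22 : c < 19104
  · exact allRange_iff.mp chk_22 c (by omega) (by omega)
  by_cases h23 : c < 20169
  · exact allRange_iff.mp chk_23 c (by omega) (by omega)
  omega

end Cfsg.Agent.Lib.Helper79.HSM.LC
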