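import Cfsg.Agent.Lib.Helper79.HSM.LCData

set_option autoImplicit false
set_option maxRecDepth 100000

namespace Cfsg.Agent.Lib.Helper79.HSM.LC

open Cfsg.Agent.Lib.Helper28 Cfsg.Agent.Lib.Helper28.V2

theorem chk_24 : allRange D.checkLabel 20169 929 = true := by decide +kernel
theorem chk_25 : allRange D.checkLabel 21098 969 = true := by decide +kernel
theorem chk_26 : allRange D.checkLabel 22067 978 = true := by decide +kernel
theorem chk_27 : allRange D.checkLabel 23045 1078 = true := by decide +kernel
theorem chk_28 : allRange D.checkLabel 24123 1067 = true := by decide +kernel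
theorem chk_29 : allRange D.checkLabel 25190 963 = true := by decide +kernel
theorem chk_30 : allRange D.checkLabel 26153 1055 = true := by decide +kernel
theorem chk_31 : allRange D.checkLabel 27208 931 = true := by decide +kernel
theorem chk_32 : allRange D.checkLabel 28139 1182 = true := by decide +kernel
theorem chk_33 : allRange D.checkLabel 29321 1084 = true := by decide +kernel
theorem chk_34 : allRange D.checkLabel 30405 1067 = true := by decide +kernel
theorem chk_35 : allRange D.checkLabel 31472 1371 = true := by decide +kernel
theorem chkF_2 : ∀ c, 20169 ≤ c → c < 32843 → D.checkLabel c = true := by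
  intro c h1 h2
  by_cases h24 : c < 21098
  · exact allRange_iff.mp chk_24 c (by omega) (by omega)
  by_cases h25 : c < 22067
  · exact allRange_iff.mp chk_25 c (by omega) (by omega)
  by_cases h26 : c < 23045
  · exact allRange_iff.mp chk_26 c (by omega) (by omega)
  by_cases h27 : c < 24123
  · exact allRange_iff.mp chk_27 c (by omega) (by omega)
  by_cases h28 : c < 25190
  · exact allRange_iff.mp chk_28 c (by omega) (by omega)
  by_cases h29 : c < 26153
  · exact allRange_iff.mp chk_29 c (by omega) (by omega)
  by_cases h30 : c < 27208
  · exact allRange_iff.mp chk_30 c (by omega) (by omega)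
  by_cases h31 : c < 28139
  · exact allRange_iff.mp chk_31 c (by omega) (by omega)
  by_cases h32 : c < 29321
  · exact allRange_iff.mp chk_32 c (by omega) (by omega)
  by_cases h33 : c < 30405
  · exact allRange_iff.mp chk_33 c (by omega) (by omega)
  by_cases h34 : c < 31472
  · exact allRange_iff.mp chk_34 c (by omega) (by omega)
  by_cases h35 : c < 32843
  · exact allRange_iff.mp chk_35 c (by omega) (by omega)
  omega

end Cfsg.Agent.Lib.Helper79.HSM.LC
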