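import Cfsg.Agent.Lib.Helper79.HSM.LCData

set_option autoImplicit false
set_option maxRecDepth 100000

namespace Cfsg.Agent.Lib.Helper79.HSM.LC

open Cfsg.Agent.Lib.Helper28 Cfsg.Agent.Lib.Helper28.V2

theorem chk_36 : allRange D.checkLabel 32843 996 = true := by decide +kernel
theorem chk_37 : allRange D.checkLabel 33839 1389 = true := by decide +kernel
theorem chk_38 : allRange D.checkLabel 35228 1051 = true := by decide +kernel
theorem chk_39 : allRange D.checkLabel 36279 1399 = true := by decide +kernel
theorem chk_40 : allRange D.checkLabel 37678 1089 = true := by decide +kernel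
theorem chk_41 : allRange D.checkLabel 38767 1436 = true := by decide +kernel
theorem chk_42 : allRange D.checkLabel 40203 1145 = true := by decide +kernel
theorem chk_43 : allRange D.checkLabel 41348 1403 = true := by decide +kernel
theorem chk_44 : allRange D.checkLabel 42751 1461 = true := by decide +kernel
theorem chk_45 : allRange D.checkLabel 44212 1339 = true := by decide +kernel
theorem chk_46 : allRange D.checkLabel 45551 1355 = true := by decide +kernel
theorem chk_47 : allRange D.checkLabel 46906 1494 = true := by decide +kernel
theorem chkF_3 : ∀ c, 32843 ≤ c → c < 48400 → D.checkLabel c = true := by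
  intro c h1 h2
  by_cases h36 : c < 33839
  · exact allRange_iff.mp chk_36 c (by omega) (by omega)
  by_cases h37 : c < 35228
  · exact allRange_iff.mp chk_37 c (by omega) (by omega)
  by_cases h38 : c < 36279
  · exact allRange_iff.mp chk_38 c (by omega) (by omega)
  by_cases h39 : c < 37678
  · exact allRange_iff.mp chk_39 c (by omega) (by omega)
  by_cases h40 : c < 38767
  · exact allRange_iff.mp chk_40 c (by omega) (by omega)
  by_cases h41 : c < 40203
  · exact allRange_iff.mp chk_41 c (by omega) (by omega)
  by_cases h42 : c < 41348
  · exact allRange_iff.mp chk_42 c (by omega) (by omega)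
  by_cases h43 : c < 42751
  · exact allRange_iff.mp chk_43 c (by omega) (by omega)
  by_cases h44 : c < 44212
  · exact allRange_iff.mp chk_44 c (by omega) (by omega)
  by_cases h45 : c < 45551
  · exact allRange_iff.mp chk_45 c (by omega) (by omega)
  by_cases h46 : c < 46906
  · exact allRange_iff.mp chk_46 c (by omega) (by omega)
  by_cases h47 : c < 48400
  · exact allRange_iff.mp chk_47 c (by omega) (by omega)
  omega

end Cfsg.Agent.Lib.Helper79.HSM.LC
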