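import Cfsg.Agent.Lib.Helper79.HSM.LCData

set_option autoImplicit false
set_option maxRecDepth 100000

namespace Cfsg.Agent.Lib.Helper79.HSM.LC

open Cfsg.Agent.Lib.Helper28 Cfsg.Agent.Lib.Helper28.V2

theorem chk_48 : allRange D.checkLabel 48400 1339 = true := by decide +kernel
theorem chk_49 : allRange D.checkLabel 49739 980 = true := by decide +kernel
theorem chk_50 : allRange D.checkLabel 50719 1298 = true := by decide +kernel
theorem chk_51 : allRange D.checkLabel 52017 1076 = true := by decide +kernel
theorem chk_52 : allRange D.checkLabel 53093 1155 = true := by decide +kernel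
theorem chk_53 : allRange D.checkLabel 54248 1201 = true := by decide +kernel
theorem chk_54 : allRange D.checkLabel 55449 1380 = true := by decide +kernel
theorem chk_55 : allRange D.checkLabel 56829 1199 = true := by decide +kernel
theorem chk_56 : allRange D.checkLabel 58028 1210 = true := by decide +kernel
theorem chk_57 : allRange D.checkLabel 59238 1094 = true := by decide +kernel
theorem chk_58 : allRange D.checkLabel 60332 1397 = true := by decide +kernel
theorem chk_59 : allRange D.checkLabel 61729 1359 = true := by decide +kernel
theorem chkF_4 : ∀ c, 48400 ≤ c → c < 63088 → D.checkLabel c = true := by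
  intro c h1 h2
  by_cases h48 : c < 49739
  · exact allRange_iff.mp chk_48 c (by omega) (by omega)
  by_cases h49 : c < 50719
  · exact allRange_iff.mp chk_49 c (by omega) (by omega)
  by_cases h50 : c < 52017
  · exact allRange_iff.mp chk_50 c (by omega) (by omega)
  by_cases h51 : c < 53093
  · exact allRange_iff.mp chk_51 c (by omega) (by omega)
  by_cases h52 : c < 54248
  · exact allRange_iff.mp chk_52 c (by omega) (by omega)
  by_cases h53 : c < 55449
  · exact allRange_iff.mp chk_53 c (by omega) (by omega)
  by_cases h54 : c < 56829
  · exact allRange_iff.mp chk_54 c (by omega) (by omega)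
  by_cases h55 : c < 58028
  · exact allRange_iff.mp chk_55 c (by omega) (by omega)
  by_cases h56 : c < 59238
  · exact allRange_iff.mp chk_56 c (by omega) (by omega)
  by_cases h57 : c < 60332
  · exact allRange_iff.mp chk_57 c (by omega) (by omega)
  by_cases h58 : c < 61729
  · exact allRange_iff.mp chk_58 c (by omega) (by omega)
  by_cases h59 : c < 63088
  · exact allRange_iff.mp chk_59 c (by omega) (by omega)
  omega

end Cfsg.Agent.Lib.Helper79.HSM.LC
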