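import Cfsg.Agent.Lib.Helper79.HSM.LCData

set_option autoImplicit false
set_option maxRecDepth 100000

namespace Cfsg.Agent.Lib.Helper79.HSM.LC

open Cfsg.Agent.Lib.Helper28 Cfsg.Agent.Lib.Helper28.V2

theorem chk_60 : allRange D.checkLabel 63088 1190 = true := by decide +kernel
theorem chk_61 : allRange D.checkLabel 64278 1237 = true := by decide +kernel
theorem chk_62 : allRange D.checkLabel 65515 1302 = true := by decide +kernel
theorem chk_63 : allRange D.checkLabel 66817 1346 = true := by decide +kernel
theorem chk_64 : allRange D.checkLabel 68163 1312 = true := by decide +kernel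
theorem chk_65 : allRange D.checkLabel 69475 1373 = true := by decide +kernel
theorem chk_66 : allRange D.checkLabel 70848 1475 = true := by decide +kernel
theorem chk_67 : allRange D.checkLabel 72323 1453 = true := by decide +kernel
theorem chk_68 : allRange D.checkLabel 73776 1178 = true := by decide +kernel
theorem chk_69 : allRange D.checkLabel 74954 1465 = true := by decide +kernel
theorem chk_70 : allRange D.checkLabel 76419 1500 = true := by decide +kernel
theorem chk_71 : allRange D.checkLabel 77919 1450 = true := by decide +kernel
theorem chkF_5 : ∀ c, 63088 ≤ c → c < 79369 → D.checkLabel c = true := by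
  intro c h1 h2
  by_cases h60 : c < 64278
  · exact allRange_iff.mp chk_60 c (by omega) (by omega)
  by_cases h61 : c < 65515
  · exact allRange_iff.mp chk_61 c (by omega) (by omega)
  by_cases h62 : c < 66817
  · exact allRange_iff.mp chk_62 c (by omega) (by omega)
  by_cases h63 : c < 68163
  · exact allRange_iff.mp chk_63 c (by omega) (by omega)
  by_cases h64 : c < 69475
  · exact allRange_iff.mp chk_64 c (by omega) (by omega)
  by_cases h65 : c < 70848
  · exact allRange_iff.mp chk_65 c (by omega) (by omega)
  by_cases h66 : c < 72323
  · exact allRange_iff.mp chk_66 c (by omega) (by omega)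
  by_cases h67 : c < 73776
  · exact allRange_iff.mp chk_67 c (by omega) (by omega)
  by_cases h68 : c < 74954
  · exact allRange_iff.mp chk_68 c (by omega) (by omega)
  by_cases h69 : c < 76419
  · exact allRange_iff.mp chk_69 c (by omega) (by omega)
  by_cases h70 : c < 77919
  · exact allRange_iff.mp chk_70 c (by omega) (by omega)
  by_cases h71 : c < 79369
  · exact allRange_iff.mp chk_71 c (by omega) (by omega)
  omega

end Cfsg.Agent.Lib.Helper79.HSM.LC
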