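import Cfsg.Agent.Lib.Helper79.HSM.LCData

set_option autoImplicit false
set_option maxRecDepth 100000

namespace Cfsg.Agent.Lib.Helper79.HSM.LC

open Cfsg.Agent.Lib.Helper28 Cfsg.Agent.Lib.Helper28.V2

theorem chk_72 : allRange D.checkLabel 79369 1210 = true := by decide +kernel
theorem chk_73 : allRange D.checkLabel 80579 1383 = true := by decide +kernel
theorem chk_74 : allRange D.checkLabel 81962 1353 = true := by decide +kernel
theorem chk_75 : allRange D.checkLabel 83315 1238 = true := by decide +kernel
theorem chk_76 : allRange D.checkLabel 84553 1293 = true := by decide +kernel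
theorem chk_77 : allRange D.checkLabel 85846 1528 = true := by decide +kernel
theorem chk_78 : allRange D.checkLabel 87374 1331 = true := by decide +kernel
theorem chk_79 : allRange D.checkLabel 88705 1356 = true := by decide +kernel
theorem chk_80 : allRange D.checkLabel 90061 1432 = true := by decide +kernel
theorem chk_81 : allRange D.checkLabel 91493 1409 = true := by decide +kernel
theorem chk_82 : allRange D.checkLabel 92902 1433 = true := by decide +kernel
theorem chk_83 : allRange D.checkLabel 94335 1380 = true := by decide +kernel
theorem chkF_6 : ∀ c, 79369 ≤ c → c < 95715 → D.checkLabel c = true := by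
  intro c h1 h2
  by_cases h72 : c < 80579
  · exact allRange_iff.mp chk_72 c (by omega) (by omega)
  by_cases h73 : c < 81962
  · exact allRange_iff.mp chk_73 c (by omega) (by omega)
  by_cases h74 : c < 83315
  · exact allRange_iff.mp chk_74 c (by omega) (by omega)
  by_cases h75 : c < 84553
  · exact allRange_iff.mp chk_75 c (by omega) (by omega)
  by_cases h76 : c < 85846
  · exact allRange_iff.mp chk_76 c (by omega) (by omega)
  by_cases h77 : c < 87374
  · exact allRange_iff.mp chk_77 c (by omega) (by omega)
  by_cases h78 : c < 88705
  · exact allRange_iff.mp chk_78 c (by omega) (by omega)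
  by_cases h79 : c < 90061
  · exact allRange_iff.mp chk_79 c (by omega) (by omega)
  by_cases h80 : c < 91493
  · exact allRange_iff.mp chk_80 c (by omega) (by omega)
  by_cases h81 : c < 92902
  · exact allRange_iff.mp chk_81 c (by omega) (by omega)
  by_cases h82 : c < 94335
  · exact allRange_iff.mp chk_82 c (by omega) (by omega)
  by_cases h83 : c < 95715
  · exact allRange_iff.mp chk_83 c (by omega) (by omega)
  omega

end Cfsg.Agent.Lib.Helper79.HSM.LC
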