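import Cfsg.Agent.Lib.Helper79.HSM.LCData

set_option autoImplicit false
set_option maxRecDepth 100000

namespace Cfsg.Agent.Lib.Helper79.HSM.LC

open Cfsg.Agent.Lib.Helper28 Cfsg.Agent.Lib.Helper28.V2

theorem chk_84 : allRange D.checkLabel 95715 1503 = true := by decide +kernel
theorem chk_85 : allRange D.checkLabel 97218 1352 = true := by decide +kernel
theorem chk_86 : allRange D.checkLabel 98570 1455 = true := by decide +kernel
theorem chk_87 : allRange D.checkLabel 100025 970 = true := by decide +kernel
theorem chk_88 : allRange D.checkLabel 100995 411 = true := by decide +kernel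
theorem chkF_7 : ∀ c, 95715 ≤ c → c < 101406 → D.checkLabel c = true := by
  intro c h1 h2
  by_cases h84 : c < 97218
  · exact allRange_iff.mp chk_84 c (by omega) (by omega)
  by_cases h85 : c < 98570
  · exact allRange_iff.mp chk_85 c (by omega) (by omega)
  by_cases h86 : c < 100025
  · exact allRange_iff.mp chk_86 c (by omega) (by omega)
  by_cases h87 : c < 100995
  · exact allRange_iff.mp chk_87 c (by omega) (by omega)
  by_cases h88 : c < 101406
  · exact allRange_iff.mp chk_88 c (by omega) (by omega)
  omega

end Cfsg.Agent.Lib.Helper79.HSM.LC
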