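import Cfsg.Agent.Lib.Helper79.HSM.LCC0
import Cfsg.Agent.Lib.Helper79.HSM.LCC1
import Cfsg.Agent.Lib.Helper79.HSM.LCC2
import Cfsg.Agent.Lib.Helper79.HSM.LCC3
import Cfsg.Agent.Lib.Helper79.HSM.LCC4
import Cfsg.Agent.Lib.Helper79.HSM.LCC5
import Cfsg.Agent.Lib.Helper79.HSM.LCC6
import Cfsg.Agent.Lib.Helper79.HSM.LCC7

set_option autoImplicit false
set_option maxRecDepth 100000

namespace Cfsg.Agent.Lib.Helper79.HSM.LC

open Cfsg.Agent.Lib.Helper28 Cfsg.Agent.Lib.Helper28.V2

theorem check_all : ∀ c < D.m, D.checkLabel c = true := by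
  intro c hc
  have hc' : c < 101406 := hc
  by_cases h0 : c < 7763
  · exact chkF_0 c (by omega) (by omega)
  by_cases h1 : c < 20169
  · exact chkF_1 c (by omega) (by omega)
  by_cases h2 : c < 32843
  · exact chkF_2 c (by omega) (by omega)
  by_cases h3 : c < 48400
  · exact chkF_3 c (by omega) (by omega)
  by_cases h4 : c < 63088
  · exact chkF_4 c (by omega) (by omega)
  by_cases h5 : c < 79369
  · exact chkF_5 c (by omega) (by omega)
  by_cases h6 : c < 95715
  · exact chkF_6 c (by omega) (by omega)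
  by_cases h7 : c < 101406
  · exact chkF_7 c (by omega) (by omega)
  omega
theorem pairs_ok : pairsC.all (pairOK (relsAll relsL invL 17) invL 16 17) = true := by decide +kernel
theorem relsK_ok : ∀ r ∈ relsAll relsL invL 17, ∀ y ∈ r, y < 17 := by decide +kernel
theorem relsL_lt : ∀ r ∈ relsL, ∀ y ∈ r, y < 16 := by decide +kernel
theorem relsL_map : relsL.map (fun r => r.map ren) = W := by decide +kernel
theorem dpairs_ok : D.pairs = pairsC.map Prod.fst := by decide +kernel
theorem fin_all : allBelow D.finalLabel 101406 = true := by decide +kernel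
theorem live_count : D.liveCount = 7920 := by decide +kernel
theorem h0_ok : D.tg D.K 0 = 0 := by decide +kernel
theorem ok : Lk.OK W oinv Cfsg.Agent.Lib.Helper79.HSM.C.K [0, 1, 2, 3] [] where
  Kall := rfl
  invK := by decide +kernel
  invE := rfl
  relsIn := by
    intro r hr
    refine ⟨relsL_lt r hr, ?_⟩
    rw [← relsL_map]
    exact List.mem_map_of_mem (f := fun r => r.map ren) hr
  Dpairs := dpairs_ok
  pairs := pairs_ok
  relsK := relsK_ok
  isSub := by
    intro x hx
    have hx' : subL.contains x = true := hx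
    show x ∈ subL
    simpa using hx'
  sub := by decide +kernel
  check := check_all
  gens := by decide +kernel
  hm := by decide
  h0 := h0_ok
  fin := allBelow_iff.mp fin_all
  count := live_count

theorem card_le {Γ : Type*} [Group Γ] (g : ℕ → Γ) (hW : ∀ t, evalW (Cfsg.Agent.Lib.Helper79.HSM.C.val g) (Cfsg.Agent.Lib.Helper79.HSM.C.word t) = 1)
    (hB : Finite (Sg (Cfsg.Agent.Lib.Helper79.HSM.C.val g) [])) :
    Finite (Sg (Cfsg.Agent.Lib.Helper79.HSM.C.val g) [0, 1, 2, 3]) ∧
      Nat.card (Sg (Cfsg.Agent.Lib.Helper79.HSM.C.val g) [0, 1, 2, 3]) ≤ 7920 * Nat.card (Sg (Cfsg.Agent.Lib.Helper79.HSM.C.val g) []) :=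
  ok.card_le _ (by
    intro w hw
    obtain ⟨t, _, rfl⟩ := List.mem_map.mp hw
    exact hW t) (fun y _ => Cov.val_oinv g y) hB

end Cfsg.Agent.Lib.Helper79.HSM.LC
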