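import Cfsg.Agent.Lib.Helper79.HSM.LA
import Cfsg.Agent.Lib.Helper79.HSM.LC

/-!
# The order of a group satisfying the covering presentation (helper79)
-/

set_option autoImplicit false

namespace Cfsg.Agent.Lib.Helper79.HSM

open Cfsg.Agent.Lib.Helper28

theorem card_le_of_words {Γ : Type*} [Group Γ] (g : ℕ → Γ)
    (hW : ∀ t, evalW (C.val g) (C.word t) = 1)
    (htop : Sg (C.val g) [0, 1, 2, 3, 4, 5] = ⊤) : Finite Γ ∧ Nat.card Γ ≤ 88704000 := by
  obtain ⟨fC, cC⟩ := LC.card_le g hW (by rw [Sg_nil]; infer_instance)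
  rw [Sg_nil] at cC
  obtain ⟨fA, cA⟩ := LA.card_le g hW fC
  rw [htop] at cA fA
  have e : Nat.card (⊤ : Subgroup Γ) = Nat.card Γ := Nat.card_congr Subgroup.topEquiv.toEquiv
  rw [e] at cA
  have c1 : Nat.card (⊥ : Subgroup Γ) = 1 := by simp
  rw [c1] at cC
  refine ⟨Finite.of_equiv _ Subgroup.topEquiv.toEquiv, ?_⟩
  calc Nat.card Γ ≤ 11200 * Nat.card (Sg (C.val g) [0, 1, 2, 3]) := cA
    _ ≤ 11200 * (7920 * 1) := Nat.mul_le_mul_left _ cC
    _ = 88704000 := by norm_num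

end Cfsg.Agent.Lib.Helper79.HSM
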