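import Cfsg.Agent.Lib.Helper79.HSM.Grp
import Cfsg.Agent.Lib.Helper79.HSM.Upper
import Cfsg.Agent.Lib.Helper92.HS.Link
import Cfsg.Agent.Lib.Helper66.PSL2Mult

/-!
# The Schur multiplier of the Higman-Sims group is cyclic of order two (helper79)

Upper bound: a covering presentation on `a, y, z` (with `⟨a, y⟩ = M₁₁`) and two certified coset
enumerations (`11200 * 7920 = 2 * |HS|`).  Existence: a double cover on `100 + 704` points.
-/

set_option autoImplicit false
set_option maxRecDepth 100000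

namespace Cfsg.Agent.Lib.Helper79.HSM

open Cfsg.Agent.Lib.Helper28
open Cfsg.Agent.Lib.Helper92

theorem stem_card_le {Γ : Type} [Group Γ] [Finite Γ] (σ : Γ →* G0) (hσ : Cfsg.IsStemExtension σ) :
    Nat.card Γ ≤ 88704000 := by
  obtain ⟨g, hg, hW⟩ := Cov.exists_lift C_ok σ hσ.1 hσ.2.1 γ hγ
  have htop : Sg (C.val g) [0, 1, 2, 3, 4, 5] = ⊤ := by
    apply Cfsg.Agent.Lib.Helper66.IsStemExtension.closure_eq_top hσ
    rw [eq_top_iff, ← Subgroup.closure_closure_coe_preimage (k := {HS.a, HS.z})]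
    apply Subgroup.closure_mono
    rintro x (h | h)
    · refine ⟨C.val g (2 * 0), ⟨0, by simp, rfl⟩, ?_⟩
      rw [Cov.val_two_mul g (show 0 < C.n by decide), hg]
      exact Subtype.ext h.symm
    · refine ⟨C.val g (2 * 2), ⟨4, by simp, rfl⟩, ?_⟩
      rw [Cov.val_two_mul g (show 2 < C.n by decide), hg]
      exact Subtype.ext h.symm
  exact (card_le_of_words g hW htop).2

theorem multiplier_G0 : Cfsg.HasCyclicSchurMultiplier G0 2 := by
  have hc : Nat.card G0 = 44352000 := HS.iso_fix.2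
  have hf : Finite G0 := Nat.finite_of_card_ne_zero (by rw [hc]; norm_num)
  apply Cfsg.Agent.Lib.Helper35.hasCyclicSchurMultiplier_of
  · obtain ⟨f0, c0⟩ := card_le_of_words gg hW_gg htop_gg
    obtain ⟨s1, s2, s3⟩ := stem_of_involution σ0 σ0_surj ζ0 ζ0_ne ζ0_sq ζ0_ker ζ0_central
      ζ0_mem_commutator (by rw [hc]; exact c0)
    exact ⟨Γ0, inferInstance, f0, σ0, s1, s2, s3⟩
  · intro Γ _ _ σ hσ
    exact cyclic_of_card_le_two (card_ker_le_two σ hσ.1 (by rw [hc]; exact stem_card_le σ hσ))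

/-- the Schur multiplier of the Higman-Sims group is cyclic of order two -/
theorem multiplier_HS : Cfsg.HasCyclicSchurMultiplier ↥Cfsg.Spor.HS 2 := by
  obtain ⟨⟨e1⟩, _⟩ := HS.iso_fix
  obtain ⟨e2⟩ := PC.nonempty_FixL_congr HS.conj_std
  exact Cfsg.Agent.Lib.Helper66.HasSchurMultiplier.of_mulEquiv
    ((HS.hsEquiv.trans e2.symm).trans e1).symm multiplier_G0

end Cfsg.Agent.Lib.Helper79.HSM
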