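import Cfsg.Agent.Lib.Helper79.HSM.ModelData
import Cfsg.Agent.Lib.Helper79.HSM.Abs

/-!
# A double cover of the Higman-Sims group on 704 points (helper79)
-/

set_option autoImplicit false
set_option maxRecDepth 100000

namespace Cfsg.Agent.Lib.Helper79.HSM

open Cfsg.Agent.Lib.Helper28
open Cfsg.Agent.Lib.Helper92

/-! ### evaluation of words on codes -/

def evA (c : ℕ → ℕ) (w : List ℕ) : ℕ := w.foldr (fun l acc => PC.mulP 100 (c l) acc) HS.eC
def evB (c : ℕ → ℕ) (w : List ℕ) : ℕ := w.foldr (fun l acc => PCX.mulP 704 (c l) acc) e7C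

theorem e7_id : PCX.isId 704 e7C = true := by decide +kernel

theorem hasP_evA {v : ℕ → Equiv.Perm (Fin 100)} {c : ℕ → ℕ} (h : ∀ l < 6, PC.HasP (v l) (c l)) :
    ∀ w : List ℕ, (∀ y ∈ w, y < 6) → PC.HasP (evalW v w) (evA c w) := by
  intro w
  induction w with
  | nil => intro _; exact PC.hasP_one HS.e_id
  | cons x w ih =>
    intro hw
    rw [evalW_cons]
    exact (h x (hw x List.mem_cons_self)).mul (ih (fun y hy => hw y (List.mem_cons_of_mem _ hy)))

theorem hasP_evB {v : ℕ → Equiv.Perm (Fin 704)} {c : ℕ → ℕ} (h : ∀ l < 6, PCX.HasP (v l) (c l)) :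
    ∀ w : List ℕ, (∀ y ∈ w, y < 6) → PCX.HasP (evalW v w) (evB c w) := by
  intro w
  induction w with
  | nil => intro _; exact PCX.hasP_one e7_id
  | cons x w ih =>
    intro hw
    rw [evalW_cons]
    exact (h x (hw x List.mem_cons_self)).mul (ih (fun y hy => hw y (List.mem_cons_of_mem _ hy)))

/-! ### the permutations -/

theorem y_ok : PC.invOK 100 yC yC = true := by decide +kernel
theorem hA_ok : PCX.invOK 704 haC haiC = true := by decide +kernel
theorem hY_ok : PCX.invOK 704 hyC hyC = true := by decide +kernel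
theorem hZ_ok : PCX.invOK 704 hzC hzC = true := by decide +kernel
theorem zt_ok : PCX.invOK 704 ztC ztC = true := by decide +kernel

def y : Equiv.Perm (Fin 100) := PC.pm 100 yC yC
def hA : Equiv.Perm (Fin 704) := PCX.pm 704 haC haiC
def hY : Equiv.Perm (Fin 704) := PCX.pm 704 hyC hyC
def hZ : Equiv.Perm (Fin 704) := PCX.pm 704 hzC hzC
def zt : Equiv.Perm (Fin 704) := PCX.pm 704 ztC ztC

def g1 : ℕ → Equiv.Perm (Fin 100)
  | 0 => HS.a
  | 1 => y
  | 2 => HS.z
  | _ => 1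

def g2 : ℕ → Equiv.Perm (Fin 704)
  | 0 => hA
  | 1 => hY
  | 2 => hZ
  | _ => 1

def cA : ℕ → ℕ := PC.nth [HS.aC, HS.aiC, yC, yC, HS.zC, HS.zC]
def cB : ℕ → ℕ := PC.nth [haC, haiC, hyC, hyC, hzC, hzC]

theorem hasP_g1 : ∀ l < 6, PC.HasP (bval g1 l) (cA l) := by
  intro l hl
  interval_cases l
  · exact HS.ha
  · exact HS.hai
  · exact PC.hasP_pm y_ok
  · exact PC.hasP_pm_inv y_ok
  · exact HS.hz
  · exact HS.hzi

theorem hasP_g2 : ∀ l < 6, PCX.HasP (bval g2 l) (cB l) := by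
  intro l hl
  interval_cases l
  · exact PCX.hasP_pm hA_ok
  · exact PCX.hasP_pm_inv hA_ok
  · exact PCX.hasP_pm hY_ok
  · exact PCX.hasP_pm_inv hY_ok
  · exact PCX.hasP_pm hZ_ok
  · exact PCX.hasP_pm_inv hZ_ok

theorem hzt : PCX.HasP zt ztC := PCX.hasP_pm zt_ok

/-! ### the checks -/

theorem rels_chk : ∀ r ∈ relsC, (∀ y ∈ r, y < 6) ∧ PC.isId 100 (evA cA r) = true ∧
    (PCX.isId 704 (evB cB r) = true ∨ evB cB r = ztC) := by decide +kernel

theorem nrm_chk : ∀ x < 3, (∀ y ∈ (C.nrm x).flatMap C.ex, y < 6) ∧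
    PC.isId 100 (evA cA ((C.nrm x).flatMap C.ex)) = true ∧
    PCX.isId 704 (evB cB ((C.nrm x).flatMap C.ex)) = true := by decide +kernel

theorem comm_chk : (∀ y ∈ sW ++ tW ++ invW sW ++ invW tW, y < 6) ∧
    PC.isId 100 (evA cA (sW ++ tW ++ invW sW ++ invW tW)) = true ∧
    evB cB (sW ++ tW ++ invW sW ++ invW tW) = ztC := by decide +kernel

theorem y_chk : (∀ y ∈ yW, y < 6) ∧ (∀ y ∈ yW, y ≠ 2 ∧ y ≠ 3) ∧ evA cA yW = yC := by decide +kernel

theorem cen_chk : ∀ l < 6, PCX.mulP 704 (cB l) ztC = PCX.mulP 704 ztC (cB l) := by decide +kernel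

theorem zt_sq : PCX.isId 704 (PCX.mulP 704 ztC ztC) = true := by decide +kernel

theorem zt_ne : PCX.en ztC 0 ≠ 0 := by decide +kernel

end Cfsg.Agent.Lib.Helper79.HSM
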